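import Cfsg.Agent.H284.StdRed
import Cfsg.Agent.S1738

/-!
# Standard subgroups with even centre and alternating quotient of degree at least 8 (helper284)
-/

set_option autoImplicit false

namespace Cfsg.Agent.H284.EvenBig

open Subgroup Cfsg Cfsg.Agent.H284.StdRed Cfsg.Agent.SignalizersComponents

variable {G : Type*} [Group G] [Finite G] {A : Subgroup G}

theorem congr {X Y : Type*} [Group X] [Group Y] (e : X ≃* Y) {H : Type*} [Group H] (h : IsNonsplitDoubleCover X H) :
    IsNonsplitDoubleCover Y H := by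
  obtain ⟨h1, ⟨e2⟩, h3⟩ := h
  have hc : (center X).map (e : X →* Y) = center Y := QsBasic.map_center_mulEquiv e
  refine ⟨?_, ⟨?_⟩, ?_⟩
  · rw [← hc, ← h1]
    exact (Nat.card_congr ((center X).equivMapOfInjective _ e.injective).toEquiv).symm
  · exact (QuotientGroup.congr _ _ e hc).symm.trans e2
  · intro L hL
    refine h3 (L.comap (e : X →* Y)) ?_
    rw [← hc] at hL
    rw [isComplement'_def] at hL ⊢
    refine ⟨?_, ?_⟩
    · rintro ⟨⟨a, ha⟩, ⟨b, hb⟩⟩ ⟨⟨a', ha'⟩, ⟨b', hb'⟩⟩ h
      have h' : a * b = a' * b' := h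
      have h2 := @hL.1 ⟨⟨e a, mem_map_of_mem _ ha⟩, ⟨e b, hb⟩⟩ ⟨⟨e a', mem_map_of_mem _ ha'⟩, ⟨e b', hb'⟩⟩ (by
        show e a * e b = e a' * e b'
        rw [← map_mul, h', map_mul])
      have h4 : e a = e a' := congrArg (fun x => (x.1 : Y)) h2
      have h5 : e b = e b' := congrArg (fun x => (x.2 : Y)) h2
      have h6 := e.injective h4
      have h7 := e.injective h5
      subst h6 h7
      rfl
    · intro x
      obtain ⟨⟨⟨_, a, ha, rfl⟩, ⟨b, hb⟩⟩, h⟩ := hL.2 (e x)
      have h' : e a * b = e x := h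
      refine ⟨⟨⟨a, ha⟩, ⟨e.symm b, ?_⟩⟩, ?_⟩
      · show e (e.symm b) ∈ L
        rw [e.apply_symm_apply]; exact hb
      · show a * e.symm b = x
        apply e.injective
        rw [map_mul, e.apply_symm_apply, h']

theorem main (hO : oddCore G = ⊥) (hA : IsStandardSubgroup A) (hnA : ¬ A.Normal)
    (hZ : Even (Nat.card ↥(center ↥A))) {n : ℕ} (hn : 8 ≤ n) (e : ↥A ⧸ center ↥A ≃* ↥(alternatingGroup (Fin n))) :
    (n = 8 ∧ Spor.IsoMcL ↥(layer G)) ∨ (n = 11 ∧ Spor.IsoLy ↥(layer G)) := by
  obtain ⟨hAE, hs, hna, hF⟩ := red hO hA hnA hZ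
  obtain ⟨z, hzA, hz, hzc⟩ := exists_involution hZ
  obtain ⟨hle, hcomp⟩ := isPComponent hA hzA hz hzc
  have hq : IsQuasisimple ↥(layer G) := by
    refine ⟨?_, ?_⟩
    · rw [Group.isPerfect_def]
      rcases (inferInstance : (commutator ↥(layer G)).Normal).eq_bot_or_eq_top with h | h
      · exfalso
        apply hna
        refine ⟨⟨fun a b => ?_⟩⟩
        have h1 := Subgroup.commutator_mem_commutator (mem_top a) (mem_top b)
        rw [← _root_.commutator_def, h, mem_bot, commutatorElement_eq_one_iff_mul_comm] at h1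
        exact h1
      · exact h
    · have hc : center ↥(layer G) = ⊥ := by
        rcases (inferInstance : (center ↥(layer G)).Normal).eq_bot_or_eq_top with h | h
        · exact h
        · exfalso
          apply hna
          refine ⟨⟨fun a b => ?_⟩⟩
          have ha : a ∈ center ↥(layer G) := by rw [h]; exact mem_top a
          exact ((mem_center_iff.1 ha) b).symm
      exact ((QuotientGroup.quotientMulEquivOfEq hc).trans QuotientGroup.quotientBot).isSimpleGroup
  have hq' : IsQuasisimple ↥(generalizedFittingSubgroup G) := by rw [hF]; exact hq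
  have hd := double_cover hA.1 hZ (by omega) e
  let eA := subgroupOfEquivOfLe hle
  have hd' : IsNonsplitDoubleCover (↥(A.subgroupOf (centralizer {z})) ⧸ oddCore ↥(A.subgroupOf (centralizer {z})))
      ↥(alternatingGroup (Fin n)) := by
    refine congr ?_ hd.2
    exact QuotientGroup.congr _ _ eA.symm (Lib.Cores.map_equiv_pPrimeCore eA.symm 2)
  have h := S1738.result hO hq' z hz (A.subgroupOf (centralizer {z})) hcomp
    ⟨⟨z, hle hzA⟩, mem_subgroupOf.2 hzA, rfl⟩ n hn hd'
  rw [hF] at h
  rcases h with h | h | h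
  · exfalso
    have h1 := h.1
    have hc : center ↥(layer G) = ⊥ := by
      rcases (inferInstance : (center ↥(layer G)).Normal).eq_bot_or_eq_top with h | h
      · exact h
      · exfalso
        apply hna
        refine ⟨⟨fun a b => ?_⟩⟩
        have ha : a ∈ center ↥(layer G) := by rw [h]; exact mem_top a
        exact ((mem_center_iff.1 ha) b).symm
    rw [hc, card_bot] at h1
    exact absurd h1 (by norm_num)
  · exact Or.inl h
  · exact Or.inr h

end Cfsg.Agent.H284.EvenBig
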