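import Cfsg.Agent.H295.StdRed
import Cfsg.Agent.H284.FStd

/-!
# Reduction for S3097 (helper284)

`red` : `O(G) = 1`, `A` standard, not normal: `E(G) ≃* A × A`, or `E(G) = F*(G)` is simple, nonabelian;
`cyc` : two commuting involutions do not centralize `A` if `C_G(A)` has cyclic Sylow 2-subgroups;
`no_inv` : if an involution outside of a normal subgroup `X` centralizes `A`, no involution of `X` centralizes `A`.
-/

set_option autoImplicit false

namespace Cfsg.Agent.H284.Red97

open Subgroup Cfsg Cfsg.Agent.SignalizersComponents Cfsg.Agent.SignalizersComponents.Components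

variable {G : Type*} [Group G] [Finite G] {A : Subgroup G}

omit [Finite G] in
/-- a product of commuting subgroups -/
theorem prod_equiv {E Y Z : Subgroup G} (hc : ∀ a ∈ Y, ∀ b ∈ Z, a * b = b * a) (hinf : Y ⊓ Z = ⊥) (hsup : Y ⊔ Z = E) :
    Nonempty (↥E ≃* ↥Y × ↥Z) := by
  let f : ↥Y × ↥Z →* G :=
    { toFun := fun p => (p.1 : G) * p.2
      map_one' := by
        change ((1 : ↥Y) : G) * ((1 : ↥Z) : G) = 1
        rw [coe_one, coe_one, mul_one]
      map_mul' := fun p q => by
        change ((p.1 * q.1 : ↥Y) : G) * ((p.2 * q.2 : ↥Z) : G) = (p.1 : G) * p.2 * ((q.1 : G) * q.2)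
        rw [coe_mul, coe_mul]
        have h1 := hc q.1 q.1.2 p.2 p.2.2
        calc (p.1 : G) * q.1 * (p.2 * q.2) = (p.1 : G) * (q.1 * p.2) * q.2 := by group
          _ = (p.1 : G) * (p.2 * q.1) * q.2 := by rw [h1]
          _ = (p.1 : G) * p.2 * ((q.1 : G) * q.2) := by group }
  have hf : Function.Injective f := by
    rw [injective_iff_map_eq_one]
    rintro ⟨a, b⟩ hab
    have h1 : (a : G) * b = 1 := hab
    have h2 : (a : G) ∈ Y ⊓ Z := by
      refine ⟨a.2, ?_⟩
      rw [eq_inv_of_mul_eq_one_left h1]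
      exact Z.inv_mem b.2
    rw [hinf, mem_bot] at h2
    rw [h2, one_mul] at h1
    exact Prod.ext (Subtype.ext h2) (Subtype.ext h1)
  have hr : f.range = E := by
    rw [← hsup]
    apply le_antisymm
    · rintro _ ⟨p, rfl⟩
      exact mul_mem (mem_sup_left p.1.2) (mem_sup_right p.2.2)
    · refine sup_le (fun y hy => ⟨(⟨y, hy⟩, 1), ?_⟩) (fun z hz => ⟨(1, ⟨z, hz⟩), ?_⟩)
      · change y * ((1 : ↥Z) : G) = y
        rw [coe_one, mul_one]
      · change ((1 : ↥Y) : G) * z = z
        rw [coe_one, one_mul]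
  exact ⟨((MonoidHom.ofInjective hf).trans (MulEquiv.subgroupCongr hr)).symm⟩

/-- **The reduction** -/
theorem red (hO : oddCore G = ⊥) (hA : IsStandardSubgroup A) (hn : ¬ A.Normal) :
    Nonempty (↥(layer G) ≃* ↥A × ↥A) ∨
      (A ≤ layer G ∧ IsSimpleGroup ↥(layer G) ∧ ¬ IsMulCommutative ↥(layer G) ∧
        generalizedFittingSubgroup G = layer G) := by
  obtain ⟨t, htA, ht⟩ := H295.StdRed.exists_inv hA
  have h2 : pCore 2 G = ⊥ := by
    by_contra h
    exact hn (StandardTrichotomy.normal_of_pCore_ne_bot hA ht htA h)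
  have hF : fittingSubgroup G = ⊥ := by
    have := CompOrbit.fittingSubgroup_le_pCore (p := 2) hO
    rw [h2] at this
    exact le_bot_iff.mp this
  have h3 : generalizedFittingSubgroup G = layer G := by
    show layer G ⊔ fittingSubgroup G = layer G
    rw [hF, sup_bot_eq]
  rcases S1347.result A hA hO t ht htA with h | ⟨Y, hY, hYn, ⟨e⟩, hcomm, hinf, hsup, -⟩ | ⟨h3', h4, h5⟩
  · exact absurd h hn
  · left
    obtain ⟨f⟩ := prod_equiv hcomm hinf hsup
    have e2 : ↥(Y.map (MulAut.conj t).toMonoidHom) ≃* ↥Y :=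
      (Y.equivMapOfInjective _ (MulAut.conj t).injective).symm
    exact ⟨f.trans (e.prodCongr (e2.trans e))⟩
  · right
    exact ⟨h3', h4, h5, h3⟩

/-- involutions of a cyclic group are equal -/
theorem eq_of_cyclic {S : Type*} [Group S] [IsCyclic S] [Finite S] {a b : S} (ha : orderOf a = 2) (hb : orderOf b = 2) :
    a = b := by
  classical
  have := Fintype.ofFinite S
  have hd : 2 ∣ Fintype.card S := by rw [← ha]; exact orderOf_dvd_card
  have h1 := IsCyclic.card_orderOf_eq_totient hd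
  rw [Nat.totient_two, Finset.card_eq_one] at h1
  obtain ⟨c, hc⟩ := h1
  have h2 : ∀ d : S, orderOf d = 2 → d = c := by
    intro d hd2
    have h3 : d ∈ ({c} : Finset S) := by
      rw [← hc, Finset.mem_filter]
      exact ⟨Finset.mem_univ _, hd2⟩
    exact Finset.mem_singleton.1 h3
  rw [h2 a ha, h2 b hb]

/-- the centralizer has cyclic Sylow 2-subgroups: commuting involutions coincide -/
theorem cyc (hR : ∀ R : Sylow 2 ↥(centralizer (A : Set G)), IsCyclic ↥(R : Subgroup ↥(centralizer (A : Set G))))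
    {s t : G} (hs : s ∈ centralizer (A : Set G)) (ht : t ∈ centralizer (A : Set G)) (hs2 : orderOf s = 2)
    (ht2 : orderOf t = 2) (hst : s * t = t * s) : s = t := by
  have : Fact (Nat.Prime 2) := ⟨Nat.prime_two⟩
  let C := centralizer (A : Set G)
  let s' : ↥C := ⟨s, hs⟩
  let t' : ↥C := ⟨t, ht⟩
  have hs2' : orderOf s' = 2 := by rw [← hs2, ← orderOf_coe]
  have ht2' : orderOf t' = 2 := by rw [← ht2, ← orderOf_coe]
  have hst' : Commute s' t' := Subtype.ext hst
  -- the group generated by `s'`, `t'`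
  let N : Subgroup ↥C := zpowers s' ⊔ zpowers t'
  have hN : IsPGroup 2 ↥N := by
    have h1 : IsPGroup 2 ↥(zpowers s') := IsPGroup.of_card (n := 1) (by rw [Nat.card_zpowers, hs2', pow_one])
    have h2 : IsPGroup 2 ↥(zpowers t') := IsPGroup.of_card (n := 1) (by rw [Nat.card_zpowers, ht2', pow_one])
    refine IsPGroup.to_sup_of_normal_right' h1 h2 ?_
    rw [zpowers_le, mem_normalizer_iff]
    intro y
    have key : ∀ k : ℤ, s' * t' ^ k * s'⁻¹ = t' ^ k := fun k => by
      rw [(hst'.zpow_right k).eq, mul_inv_cancel_right]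
    have hy' : s' * y * s'⁻¹ ∈ zpowers t' ↔ y ∈ zpowers t' := by
      constructor
      · intro hy
        obtain ⟨k, hk⟩ := mem_zpowers_iff.1 hy
        have h3 : y = t' ^ k := by
          calc y = s'⁻¹ * (s' * y * s'⁻¹) * s' := by group
            _ = s'⁻¹ * (t' ^ k) * s' := by rw [hk]
            _ = s'⁻¹ * (s' * t' ^ k * s'⁻¹) * s' := by rw [key k]
            _ = t' ^ k := by group
        rw [h3]
        exact mem_zpowers_iff.2 ⟨k, rfl⟩
      · intro hy
        obtain ⟨k, rfl⟩ := mem_zpowers_iff.1 hy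
        rw [key k]
        exact mem_zpowers_iff.2 ⟨k, rfl⟩
    exact hy'.symm
  obtain ⟨R, hNR⟩ := hN.exists_le_sylow
  have hc := hR R
  have hsR : s' ∈ (R : Subgroup ↥C) := hNR (mem_sup_left (mem_zpowers _))
  have htR : t' ∈ (R : Subgroup ↥C) := hNR (mem_sup_right (mem_zpowers _))
  have h5 := eq_of_cyclic (S := ↥(R : Subgroup ↥C)) (a := ⟨s', hsR⟩) (b := ⟨t', htR⟩)
    ((orderOf_mk _ _).trans hs2') ((orderOf_mk _ _).trans ht2')
  have h6 : s' = t' := congrArg Subtype.val h5
  exact congrArg Subtype.val h6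

end Cfsg.Agent.H284.Red97
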