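import Cfsg.Agent.H284.FStd
import Cfsg.Agent.H284.Red97
import Cfsg.Agent.H284.AltComp
import Cfsg.Agent.H300.KillLem

/-!
# The situation of S3097 for simple `F*(G)` (helper284)

* `Sit x A` : `A` is a normal component of `C_X(x)`, its centralizer there has cyclic Sylow 2-subgroups, and odd order if
  `x` is outer;
* `sit_of` : from a standard subgroup `A ≤ X = F*(G)` with cyclic Sylow 2-subgroups of `C_G(A)`;
* `Sit.row_out` : `x` outer, `A/Z(A)` tight: sectional 2-rank at most 4;
* `tight_five` : `A₅` is tight.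
-/

set_option autoImplicit false

namespace Cfsg.Agent.H284.Sit97

open Subgroup Cfsg Cfsg.Agent.H284.FStd Cfsg.Agent.H300.D8Base Cfsg.Agent.H300.SporBase Cfsg.Agent.H300.KillLem

universe u v

/-- the situation -/
structure Sit {X : Type u} [Group X] (x : MulAut X) (A : Subgroup ↥(fixedSubgroup x)) : Prop where
  hxx : x * x = 1
  hx1 : x ≠ 1
  comp : IsComponent A
  norm : A.Normal
  cyc : ∀ R : Sylow 2 ↥(centralizer (A : Set ↥(fixedSubgroup x))),
    IsCyclic ↥(R : Subgroup ↥(centralizer (A : Set ↥(fixedSubgroup x))))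
  out : (¬ ∃ g, x = MulAut.conj g) → ∀ u : ↥(fixedSubgroup x), orderOf u = 2 → u ∉ centralizer (A : Set ↥(fixedSubgroup x))

/-- groups which embed into a group with cyclic Sylow 2-subgroups -/
theorem cyc_of_injective {C D : Type*} [Group C] [Group D] (f : C →* D) (hf : Function.Injective f)
    (hD : ∀ R : Sylow 2 D, IsCyclic ↥(R : Subgroup D)) (S : Sylow 2 C) : IsCyclic ↥(S : Subgroup C) := by
  obtain ⟨R, hR⟩ := (S.isPGroup'.map f).exists_le_sylow
  have := hD R
  let g : ↥(S : Subgroup C) →* ↥(R : Subgroup D) :=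
    (inclusion hR).comp ((S : Subgroup C).equivMapOfInjective f hf).toMonoidHom
  exact isCyclic_of_injective g ((inclusion_injective hR).comp (MulEquiv.injective _))

theorem sit_of {G : Type u} [Group G] [Finite G] {X A : Subgroup G} [hX : X.Normal] (hc : centralizer (X : Set G) = ⊥)
    (hA : IsStandardSubgroup A) (hAX : A ≤ X) {t : G} (ht : orderOf t = 2) (htA : t ∈ centralizer (A : Set G))
    (hR : ∀ R : Sylow 2 ↥(centralizer (A : Set G)), IsCyclic ↥(R : Subgroup ↥(centralizer (A : Set G)))) :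
    Sit (MulAut.conjNormal t : MulAut ↥X) (BB X A t) := by
  obtain ⟨h1, h2, h3⟩ := comp_fix hc hA hAX ht htA
  have hcen : ∀ u : ↥(fixedSubgroup (MulAut.conjNormal t : MulAut ↥X)),
      u ∈ centralizer (BB X A t : Set ↥(fixedSubgroup (MulAut.conjNormal t : MulAut ↥X))) →
        ((u : ↥X) : G) ∈ centralizer (A : Set G) := by
    intro u hu
    rw [mem_centralizer_iff]
    intro a ha
    have h5 := mem_centralizer_iff.1 hu ⟨⟨a, hAX ha⟩, le_fix htA (mem_subgroupOf.2 ha)⟩ ha
    exact congrArg (fun w : ↥(fixedSubgroup (MulAut.conjNormal t : MulAut ↥X)) => ((w : ↥X) : G)) h5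
  refine ⟨h1, h2, h3, ?_, ?_, ?_⟩
  · have h4 := SignalizersComponents.StandardTrichotomy.centralizer_involution_le hA ht htA
    constructor
    rintro ⟨⟨a, haX⟩, haf⟩ ha ⟨⟨g, hgX⟩, hgf⟩
    have h5 : g ∈ centralizer ({t} : Set G) := by
      rw [mem_centralizer_singleton_iff]
      exact (mem_fix.1 hgf).symm
    have h6 := h4 h5
    rw [mem_normalizer_iff] at h6
    exact (h6 a).1 ha
  · refine cyc_of_injective (D := ↥(centralizer (A : Set G)))
      { toFun := fun u => ⟨(((u : ↥(fixedSubgroup (MulAut.conjNormal t : MulAut ↥X))) : ↥X) : G), hcen u u.2⟩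
        map_one' := rfl
        map_mul' := fun _ _ => rfl } ?_ hR
    intro u v huv
    have h5 : (((u : ↥(fixedSubgroup (MulAut.conjNormal t : MulAut ↥X))) : ↥X) : G) =
      (((v : ↥(fixedSubgroup (MulAut.conjNormal t : MulAut ↥X))) : ↥X) : G) :=
      congrArg (fun w : ↥(centralizer (A : Set G)) => (w : G)) huv
    exact Subtype.ext (Subtype.ext (Subtype.ext h5))
  · intro hout u hu huA
    have h5 : ((u : ↥X) : G) = t := by
      refine Red97.cyc hR (hcen u huA) htA ?_ ht ?_
      · rw [orderOf_coe, orderOf_coe, hu]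
      · exact (mem_fix.1 u.2).symm
    apply hout
    refine ⟨(u : ↥X), ?_⟩
    ext y
    rw [MulAut.conj_apply, MulAut.conjNormal_apply]
    simp only [coe_mul, InvMemClass.coe_inv, h5]

section sit

variable {X : Type u} [Group X] [Finite X] {x : MulAut X} {A : Subgroup ↥(fixedSubgroup x)} (S : Sit x A)

include S

theorem Sit.cyc2 {s t : ↥(fixedSubgroup x)} (hs : s ∈ centralizer (A : Set ↥(fixedSubgroup x)))
    (ht : t ∈ centralizer (A : Set ↥(fixedSubgroup x))) (hs2 : orderOf s = 2) (ht2 : orderOf t = 2)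
    (hst : s * t = t * s) : s = t :=
  Red97.cyc S.cyc hs ht hs2 ht2 hst

omit [Finite X] in
theorem Sit.orderOf_eq : orderOf x = 2 := orderOf_eq_prime (by rw [pow_two, S.hxx]) S.hx1

omit [Finite X] in
/-- the involution of an inner `x` -/
theorem Sit.inner_mem (hc : center X = ⊥) {z : X} (hz : x = MulAut.conj z) :
    orderOf z = 2 ∧ ∃ hzf : z ∈ fixedSubgroup x, (⟨z, hzf⟩ : ↥(fixedSubgroup x)) ∈
      centralizer (A : Set ↥(fixedSubgroup x)) := by
  have h1 : z * z = 1 := by
    have h2 : z * z ∈ center X := by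
      rw [mem_center_iff]
      intro g
      have h3 := congrArg (fun f : MulAut X => f g) S.hxx
      simp only [hz, MulAut.mul_apply, MulAut.conj_apply, MulAut.one_apply] at h3
      calc g * (z * z) = (z * (z * g * z⁻¹) * z⁻¹) * (z * z) := by rw [h3]
        _ = z * z * g := by group
    rwa [hc, mem_bot] at h2
  have h2 : z ≠ 1 := by
    intro h
    apply S.hx1
    rw [hz, h, map_one]
  have hzf : z ∈ fixedSubgroup x := by
    change x z = z
    rw [hz, MulAut.conj_apply, mul_inv_cancel_right]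
  refine ⟨orderOf_eq_prime (by rw [pow_two, h1]) h2, hzf, ?_⟩
  rw [mem_centralizer_iff]
  intro a _
  apply Subtype.ext
  have h3 : ∀ c : X, x c = c → c * z = z * c := by
    intro c hc
    rw [hz, MulAut.conj_apply, mul_inv_eq_iff_eq_mul] at hc
    exact hc.symm
  exact h3 a a.2

omit [Finite X] S in
theorem Sit.fix_eq {z : X} (hz : x = MulAut.conj z) : fixedSubgroup x = centralizer ({z} : Set X) := by
  ext g
  rw [mem_centralizer_singleton_iff]
  change x g = g ↔ _
  rw [hz, MulAut.conj_apply, mul_inv_eq_iff_eq_mul]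
  exact eq_comm

omit [Finite X] in
/-- `A` as a component of the centralizer of an involution -/
theorem Sit.comp_inner {z : X} (hz : x = MulAut.conj z) :
    IsComponentOf (A.map (fixedSubgroup x).subtype) (centralizer ({z} : Set X)) := by
  have h1 := Sit.fix_eq hz
  rw [← h1]
  refine ⟨map_subtype_le A, ?_⟩
  have h2 : (A.map (fixedSubgroup x).subtype).subgroupOf (fixedSubgroup x) = A :=
    comap_map_eq_self_of_injective (fixedSubgroup x).subtype_injective A
  rw [h2]
  exact S.comp

theorem Sit.row_out (hout : ¬ ∃ g, x = MulAut.conj g) {P : Type v} [Group P] [Finite P] (hP : Tight P)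
    (e : ↥A ⧸ center ↥A ≃* P) : SectionalPRankLE 2 4 X :=
  rank_of_tight S.hxx S.hx1 (ofComp S.norm S.comp.2 e (S.out hout)) hP

end sit

section five

open Equiv H284.RankFix

/-- **`A₅` is tight** -/
theorem tight_five : Tight ↥(alternatingGroup (Fin 5)) := by
  let a : ↥(alternatingGroup (Fin 5)) := ⟨pa, pa_mem⟩
  let b : ↥(alternatingGroup (Fin 5)) := ⟨pb, pb_mem⟩
  have ha : a * a = 1 := Subtype.ext pa_sq
  have hb : b * b = 1 := Subtype.ext pb_sq
  have hab : a * b = b * a := Subtype.ext pab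
  have ha1 : a ≠ 1 := fun h => pa_ne (congrArg Subtype.val h)
  have hb1 : b ≠ 1 := fun h => pb_ne (congrArg Subtype.val h)
  have hne : a ≠ b := fun h => pa_ne_pb (congrArg Subtype.val h)
  refine ⟨four a b ha hb hab, comm_four, sq_four, card_four ha hb hab ha1 hb1 hne, ?_⟩
  intro y hy
  obtain ⟨σ, hσ⟩ := AltComp.exists_conj le_rfl y (fun h => by omega)
  have h1 : σ * pa = pa * σ := by
    have h2 := hσ a
    rw [hy a (Or.inr (Or.inl rfl))] at h2
    exact (eq_mul_inv_iff_mul_eq.1 h2).symm
  have h3 : σ * pb = pb * σ := by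
    have h2 := hσ b
    rw [hy b (Or.inr (Or.inr (Or.inl rfl)))] at h2
    exact (eq_mul_inv_iff_mul_eq.1 h2).symm
  have key : ∀ c : ↥(alternatingGroup (Fin 5)), (c : Perm (Fin 5)) = σ → y = MulAut.conj c := by
    intro c hc
    ext g : 2
    rw [hσ, MulAut.conj_apply, coe_mul, coe_mul, InvMemClass.coe_inv, hc]
  rcases cent_five σ h1 h3 with h | h | h | h
  · exact ⟨1, one_mem _, key 1 (by rw [h]; rfl)⟩
  · exact ⟨a, Or.inr (Or.inl rfl), key a h.symm⟩
  · exact ⟨b, Or.inr (Or.inr (Or.inl rfl)), key b h.symm⟩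
  · exact ⟨a * b, Or.inr (Or.inr (Or.inr rfl)), key (a * b) (by rw [h]; rfl)⟩

end five

end Cfsg.Agent.H284.Sit97
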